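import Cfsg.Agent.ZStar.Quaternion
import Cfsg.Agent.ZStar.Corollaries

/-!
# Quaternion Sylow 2-subgroups of order at least 16

* `exceptional_pair`: two irreducible characters whose difference is `1` off elements of order
  divisible by four;
* `exists_even_core`: the normal subgroup `O(G)⟨z⟩` of twice odd order.
-/

set_option autoImplicit false
set_option linter.style.haveILetI false

namespace CfsgLib.QuatSixteen

open Cfsg CfsgLib.ZStar CfsgLib.TwoGroup

universe u

variable {G : Type u} [Group G] [Finite G]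

theorem exists_frame (S : Sylow 2 G) (m : ℕ)
    (e : (S : Subgroup G) ≃* QuaternionGroup (2 ^ (m + 2))) :
    ∃ n, 3 ≤ n ∧ Nonempty (Frame (S : Subgroup G) (2 ^ n) (-1) (half n)) := by
  have huniq := atMostOneInvolution_of_mulEquiv e (atMostOneInvolution_quaternionGroup (m + 1))
  rcases cyclic_or_quaternion_frame S.2 huniq with hc | ⟨n, -, hcard, F⟩
  · exfalso
    obtain ⟨a, b, hab⟩ := exists_not_commute_quaternionGroup (m + 1)
    letI := IsCyclic.commGroup (α := (S : Subgroup G))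
    exact hab (e.symm.injective (by rw [map_mul, map_mul, mul_comm]))
  · refine ⟨n, ?_, F⟩
    haveI : NeZero (2 ^ (m + 2)) := ⟨by positivity⟩
    have h1 : 2 ^ (n + 1) = 2 ^ (m + 4) := by
      rw [← hcard, Nat.card_congr e.toEquiv, Nat.card_eq_fintype_card, QuaternionGroup.card]
      ring
    have := Nat.pow_right_injective le_rfl h1
    omega

section Pair

variable {S : Sylow 2 G} {n : ℕ} (F : Frame (S : Subgroup G) (2 ^ n) (-1) (half n))

theorem qPhi_eq_zero_of_not_four_dvd [Fintype G] (μ : AddChar (ZMod (2 ^ n)) ℂ) (hn : 2 ≤ n)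
    (hμ : μ (half n) = 1) {g : G} (hg : ¬ 4 ∣ orderOf g) : qPhi F μ g = 0 := by
  rw [qPhi, Finset.sum_eq_zero, mul_zero]
  intro x _
  by_contra h
  obtain ⟨hC, hj⟩ := qf_ne_zero F μ hn hμ h
  apply hj
  obtain ⟨k, r, hr, hgr⟩ := Nat.exists_eq_two_pow_mul_odd (orderOf_pos g).ne'
  have hk : k ≤ 1 := by
    by_contra hk
    exact hg (hgr ▸ dvd_mul_of_dvd_left (pow_dvd_pow 2 (by omega : 2 ≤ k)) r)
  have h2 : g ^ (2 * r) = 1 := by
    rw [← orderOf_dvd_iff_pow_eq_one, hgr]
    exact mul_dvd_mul_right (by simpa using pow_dvd_pow 2 hk) r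
  have h3 := qj_pow F hn hC (2 * r)
  rw [conj_pow, h2, mul_one, mul_inv_cancel, qj_one, Nat.cast_mul, Nat.cast_ofNat,
    mul_comm (2 : ZMod _), mul_assoc] at h3
  have hu : IsUnit ((r : ℕ) : ZMod (2 ^ n)) :=
    (ZMod.isUnit_iff_coprime r (2 ^ n)).mpr (hr.coprime_two_right.pow_right n)
  exact hu.mul_right_eq_zero.mp h3.symm

include F in
theorem exceptional_pair [Fintype G] (hn : 3 ≤ n) :
    ∃ χ₁ χ₂ : G → ℂ, IsIrrCharacter G χ₁ ∧ IsIrrCharacter G χ₂ ∧ χ₁ ≠ (fun _ => 1) ∧
      χ₂ ≠ (fun _ => 1) ∧ χ₁ 1 = χ₂ 1 + 1 ∧ ∀ g : G, ¬ 4 ∣ orderOf g → χ₁ g - χ₂ g = 1 := by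
  classical
  have hζ : (Complex.I) ^ (2 ^ n) = 1 := by
    obtain ⟨j, rfl⟩ : ∃ j, n = j + 2 := ⟨n - 2, by omega⟩
    rw [show 2 ^ (j + 2) = 4 * 2 ^ j by ring, pow_mul, Complex.I_pow_four, one_pow]
  set μ := AddChar.zmodChar (2 ^ n) hζ with hμdef
  have hμnat : ∀ a : ℕ, μ (a : ZMod (2 ^ n)) = Complex.I ^ a :=
    fun a => AddChar.zmodChar_apply' hζ a
  have hμ : μ (half n) = 1 := by
    rw [← natCast_half, hμnat]
    obtain ⟨j, rfl⟩ : ∃ j, n = j + 3 := ⟨n - 3, by omega⟩
    rw [show 2 ^ (j + 3 - 1) = 4 * 2 ^ j by rw [show j + 3 - 1 = 2 + j by omega, pow_add]; norm_num,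
      pow_mul, Complex.I_pow_four, one_pow]
  have h1 : μ 1 = Complex.I := by simpa using hμnat 1
  have hμ1 : μ 1 ≠ 1 := by
    rw [h1]; intro h
    simpa using congrArg Complex.im h
  haveI := Fintype.ofFinite (qC F)
  have hμ2 : ∑ c : qC F, μ (qj F (c : G)) * μ (qj F (c : G)) = 0 := by
    refine Eq.trans ?_ (sum_hom_eq_zero (qNu F μ (by omega) * qNu F μ (by omega))
      (a := ⟨qX F 1, qX_mem_qC F 1⟩) ?_)
    · rfl
    · rw [MonoidHom.mul_apply, Units.val_mul, qNu_apply, qj_qX, h1, Complex.I_mul_I]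
      norm_num
  choose e he using fun χ : IrrCharacter G =>
    exists_int_qc F μ (by omega) (Chars.isCharacter_coe χ)
  have he1 : e (Chars.oneChar G) = 1 := by
    have h := (he (Chars.oneChar G)).symm.trans (qc_one F μ (by omega) hμ1)
    exact_mod_cast h
  have hsq : ∑ χ : IrrCharacter G, e χ ^ 2 = 3 := by
    have h := sum_qc_sq F μ (by omega) hμ
    rw [sum_qB_sq F μ (by omega) hμ1, hμ2, mul_zero, add_zero,
      show 6 * (Nat.card (qC F) : ℂ) = 2 * (Nat.card (qC F) : ℂ) * 3 by ring,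
      inv_mul_cancel_left₀ (card_qC_ne_zero F)] at h
    simp only [he, ← pow_two] at h
    exact_mod_cast h
  have hsq' : ∑ χ ∈ Finset.univ.erase (Chars.oneChar G), e χ ^ 2 = 2 := by
    have h := hsq
    rw [← Finset.add_sum_erase _ _ (Finset.mem_univ (Chars.oneChar G)), he1] at h
    linarith
  obtain ⟨hpm, hcard⟩ := pm_one_of_sum_sq _ e hsq' (by norm_num)
  set s := (Finset.univ.erase (Chars.oneChar G)).filter fun χ => e χ ≠ 0 with hs
  have hmem : ∀ χ, χ ≠ Chars.oneChar G → (χ ∈ s ↔ e χ ≠ 0) := fun χ hχ => by simp [hs, hχ]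
  have h1s : Chars.oneChar G ∉ s := by simp [hs]
  obtain ⟨a, b, hab, hsab⟩ := Finset.card_eq_two.mp (by exact_mod_cast hcard : s.card = 2)
  have hval : ∀ g : G, ¬ 4 ∣ orderOf g →
      1 + ((e a : ℂ) * (a : G → ℂ) g + (e b : ℂ) * (b : G → ℂ) g) = 0 := by
    intro g hg
    have h := qPhi_eq_sum F μ (by omega) g
    rw [qPhi_eq_zero_of_not_four_dvd F μ (by omega) hμ hg] at h
    simp only [he] at h
    rw [quaternion_split (fun χ => (χ : G → ℂ) g) e s hmem h1s, he1, Chars.oneChar_apply, hsab,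
      Finset.sum_pair hab] at h
    simpa using h.symm
  have hmem' : ∀ χ ∈ s, χ ≠ Chars.oneChar G ∧ (e χ = 1 ∨ e χ = -1) := by
    intro χ hχ
    simp only [hs, Finset.mem_filter, Finset.mem_erase] at hχ
    exact ⟨hχ.1.1, hpm χ (Finset.mem_erase.mpr hχ.1) hχ.2⟩
  obtain ⟨ha, hea⟩ := hmem' a (by simp [hsab])
  obtain ⟨hb, heb⟩ := hmem' b (by simp [hsab])
  have hne : ∀ c : IrrCharacter G, c ≠ Chars.oneChar G → (c : G → ℂ) ≠ fun _ => 1 :=
    fun c hc h => hc (Subtype.ext (h.trans Chars.oneChar_coe.symm))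
  have h10 : ¬ 4 ∣ orderOf (1 : G) := by rw [orderOf_one]; norm_num
  obtain ⟨da, hda0, hda⟩ := Chars.exists_pos_natCast_map_one a.2
  obtain ⟨db, hdb0, hdb⟩ := Chars.exists_pos_natCast_map_one b.2
  have hd := hval 1 h10
  rw [hda, hdb] at hd
  have hd' : 1 + (e a * da + e b * db) = 0 := by exact_mod_cast hd
  rcases hea with ea | ea <;> rcases heb with eb | eb <;> rw [ea, eb] at hd'
  · omega
  · refine ⟨b, a, b.2, a.2, hne b hb, hne a ha, ?_, fun g hg => ?_⟩
    · have h := hval 1 h10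
      rw [ea, eb] at h; push_cast at h; linear_combination -h
    · have h := hval g hg
      rw [ea, eb] at h; push_cast at h; linear_combination -h
  · refine ⟨a, b, a.2, b.2, hne a ha, hne b hb, ?_, fun g hg => ?_⟩
    · have h := hval 1 h10
      rw [ea, eb] at h; push_cast at h; linear_combination -h
    · have h := hval g hg
      rw [ea, eb] at h; push_cast at h; linear_combination -h
  · omega

end Pair

/-- `O(G)⟨z⟩`: normal, twice odd order, containing every involution and `z`. -/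
theorem exists_even_core {S : Sylow 2 G} {n : ℕ}
    (F : Frame (S : Subgroup G) (2 ^ n) (-1) (half n)) (hn : 1 ≤ n)
    (huniq : AtMostOneInvolution (S : Subgroup G)) :
    ∃ M : Subgroup G, M.Normal ∧ qX F (half n) ∈ M ∧ ¬ 4 ∣ Nat.card M ∧
      ∀ t : G, orderOf t = 2 → t ∈ M := by
  set z := qX F (half n) with hz
  have hz2 : orderOf z = 2 := orderOf_qX_half F hn
  have hzc : InZStar 2 z := inZStar_of_atMostOneInvolution S huniq hz2
  set O := pPrimeCore 2 G with hO
  let f := QuotientGroup.mk' O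
  have hcen : ∀ q : G ⧸ O, q * f z * q⁻¹ = f z := by
    intro q
    obtain ⟨g, rfl⟩ := QuotientGroup.mk'_surjective O q
    show f g * f z * (f g)⁻¹ = f z
    have h1 : f (g * z * g⁻¹ * z⁻¹) = 1 := (QuotientGroup.eq_one_iff _).mpr (hzc g)
    rw [map_mul, map_mul, map_mul, map_inv, map_inv] at h1
    exact mul_inv_eq_one.mp h1
  have hnorm : (Subgroup.zpowers (f z)).Normal := ⟨fun x hx g => by
    obtain ⟨i, rfl⟩ := Subgroup.mem_zpowers_iff.mp hx
    rw [← conj_zpow, hcen g]
    exact zpow_mem (Subgroup.mem_zpowers _) _⟩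
  refine ⟨(Subgroup.zpowers (f z)).comap f, hnorm.comap f, Subgroup.mem_zpowers _, ?_, ?_⟩
  · intro h4
    have h1 : Nat.card ((Subgroup.zpowers (f z)).comap f) ∣ 2 * Nat.card O := by
      have hle : O ≤ (Subgroup.zpowers (f z)).comap f := fun x hx => by
        rw [Subgroup.mem_comap, show f x = 1 from (QuotientGroup.eq_one_iff _).mpr hx]
        exact one_mem _
      have h2 : O.relIndex ((Subgroup.zpowers (f z)).comap f) ∣ 2 := by
        have h3 := Subgroup.relIndex_comap (⊥ : Subgroup (G ⧸ O)) f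
          ((Subgroup.zpowers (f z)).comap f)
        rw [MonoidHom.comap_bot, QuotientGroup.ker_mk',
          Subgroup.map_comap_eq_self_of_surjective (QuotientGroup.mk'_surjective O),
          Subgroup.relIndex_bot_left, Nat.card_zpowers] at h3
        rw [h3]
        exact (orderOf_map_dvd f z).trans (dvd_of_eq hz2)
      rw [← Subgroup.relIndex_bot_left, ← Subgroup.relIndex_mul_relIndex ⊥ O _ bot_le hle,
        Subgroup.relIndex_bot_left, mul_comm]
      exact mul_dvd_mul_right h2 _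
    have h5 : (4 : ℕ) ∣ 2 := by
      refine Nat.Coprime.dvd_of_dvd_mul_right ?_ (h4.trans h1)
      have := Constrained.pPrimeCore_not_dvd (p := 2) (G := G)
      exact ((Nat.prime_two.coprime_iff_not_dvd.mpr this).pow_left 2)
    norm_num at h5
  · intro t ht
    rw [Subgroup.mem_comap]
    have htp : IsPGroup 2 (Subgroup.zpowers t) :=
      IsPGroup.of_card (n := 1) (by rw [Nat.card_zpowers, ht, pow_one])
    obtain ⟨U, hU⟩ := htp.exists_le_sylow
    obtain ⟨x, hx⟩ := MulAction.exists_smul_eq G U S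
    have h1 : x * t * x⁻¹ ∈ (S : Subgroup G) := by
      rw [← hx]; exact ⟨t, hU (Subgroup.mem_zpowers t), rfl⟩
    have h2 : orderOf (x * t * x⁻¹) = 2 :=
      (orderOf_injective (MulAut.conj x).toMonoidHom (MulAut.conj x).injective t).trans ht
    have h3 : x * t * x⁻¹ = z := congrArg Subtype.val
      (huniq ⟨_, h1⟩ ⟨z, qX_mem F _⟩ (by rw [Subgroup.orderOf_mk]; exact h2)
        (by rw [Subgroup.orderOf_mk]; exact hz2))
    have h4 : f t = (f x)⁻¹ * f z * f x := by
      rw [← h3, map_mul, map_mul, map_inv]; group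
    have h5 := hcen (f x)⁻¹
    rw [inv_inv] at h5
    rw [h4, h5]
    exact Subgroup.mem_zpowers _

end CfsgLib.QuatSixteen
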